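import Cfsg.Agent.H967.K4.Lie
import Cfsg.Agent.H687.FourK.Node
import Cfsg.Agent.Nodes.WittU

/-!
# `Good5` for `PSp₆(q)`, `q` even (helper612, TEAM K4)

* `sq_one_last` : the elements of the long root groups of `PSp_{2m}(q)`, `q` even, square to one;
* `nodeInv_last` : the last node inverts `T ∩ M_i`;
* `oc_last` : `OC {last}`;
* `good5_psp6`.
-/

set_option autoImplicit false

open Cfsg

namespace Cfsg.Agent.H612.K4.Sp

open CoxeterSystem Cfsg.Agent.ChevalleyStructure.CoxeterGeom Cfsg.Agent.Tits.Roots Cfsg.Agent.Tits.Core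
  Cfsg.Agent.Nodes.Comb Cfsg.Agent.Nodes.Reps Cfsg.Agent.Nodes.BNOf Cfsg.Agent.Nodes.Bruhat
  Cfsg.Agent.Nodes.WittRoot Cfsg.Agent.Nodes.WittAll
open Cfsg.Agent.Nodes.WittRGD (Tor mem_Tor nn mono_nn rg_sr rg_neg_sr)
open Cfsg.Agent.Nodes.TypeC (sg sg_sg sg_last nx ng)
open Cfsg.Agent.TitsThree Cfsg.Agent.TitsThree.Siegel Cfsg.Agent.TitsThree.WittFrame
  Cfsg.Agent.TitsThree.WittWeyl Cfsg.Agent.TitsThree.FrameCN
open Cfsg.Agent.TitsThree.SpIdent (form frame isos eq_adm)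
open Cfsg.Agent.H601.K4 (Good5)
open Cfsg.Agent.H967.K4 (OC)

variable {F : Type*} [Field F] {m : ℕ}

/-- the model -/
noncomputable abbrev Mo (m : ℕ) (F : Type*) [Field F] := KInstSp.model m F

/-- the elements fixing the frame vectors outside the plane `i` -/
def Ei (i : Fin m) : Subgroup ((Fin m ⊕ Fin m → F) ≃ₗ[F] (Fin m ⊕ Fin m → F)) where
  carrier := {g | ∀ x : Fin m × Bool, x.1 ≠ i → g ((frame m F).b x) = (frame m F).b x}
  one_mem' _ _ := rfl
  mul_mem' := by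
    intro a b ha hb x hx
    change a (b _) = _
    rw [hb x hx, ha x hx]
  inv_mem' := by
    intro a ha x hx
    change a.symm _ = _
    rw [LinearEquiv.symm_apply_eq, ha x hx]

theorem nx_last {i : Fin m} (hi : ¬ (i : ℕ) + 1 < m) : nx i = (i, true) := by
  unfold nx
  rw [dif_neg hi]

theorem mem_rg {i : Fin m} (hi : ¬ (i : ℕ) + 1 < m) {g : (Fin m ⊕ Fin m → F) ≃ₗ[F] (Fin m ⊕ Fin m → F)}
    (hg : g ∈ rg (frame m F) (sr i)) : ∃ p, g = (frame m F).Z (i, true) p := by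
  rw [rg_sr, nx_last hi, PG_self] at hg
  exact hg

theorem mem_rg' {i : Fin m} (hi : ¬ (i : ℕ) + 1 < m) {g : (Fin m ⊕ Fin m → F) ≃ₗ[F] (Fin m ⊕ Fin m → F)}
    (hg : g ∈ rg (frame m F) (-sr i)) : ∃ p, g = (frame m F).Z (i, false) p := by
  rw [rg_neg_sr, nx_last hi, PG_self] at hg
  exact hg

theorem Z_mem_Ei (i : Fin m) (s : Bool) (p : (frame m F).Adm) : (frame m F).Z (i, s) p ∈ Ei (F := F) i := by
  intro x hx
  refine Z_apply_of_ne _ ?_ p
  intro h
  exact hx (by rw [h]; rfl)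

/-- **Squares.** -/
theorem sq_one_last (h2 : (2 : F) = 0) {i : Fin m} (hi : ¬ (i : ℕ) + 1 < m) {u : PSp m F}
    (hu : u ∈ Nodes.WittModel.X (Mo m F) (sr i)) : u * u = 1 := by
  obtain ⟨g, hg, hg1, rfl⟩ := (Nodes.WittModel.mem_X (Mo m F)).1 hu
  obtain ⟨p, rfl⟩ := mem_rg hi hg1
  rw [← map_mul, ← map_one (Mo m F).φ]
  congr 1
  apply Subtype.ext
  change (frame m F).Z (i, true) p * (frame m F).Z (i, true) p = 1
  have h3 : p.c + p.c = 0 := by rw [← two_mul, h2, zero_mul]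
  have h4 : p * p = 1 := by
    rw [eq_adm p, ← SpIdent.adm_add, h3]
    rfl
  rw [← Frame.Z_mul, h4]
  exact (frame m F).Z_one _

variable [Finite F] [CharP F 2]

/-- the Weyl elements -/
noncomputable def ns (i : Fin m) : PSp m F :=
  (Mo m F).φ ⟨nn (frame m F) (SpIdent.adm 1) i, nn_mem (AmbT.of_amb (Nodes.WittU.amb_Sp (m := m) (F := F)) 2) _ i⟩

/-- the root group datum -/
theorem rgd (cs : CoxeterSystem (CoxeterMatrix.B m) (CoxeterMatrix.B m).Group) :
    haveI : Fact (Nat.Prime 2) := ⟨Nat.prime_two⟩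
    RGD cs (Nodes.TypeC.isCartan m) 2 (Nodes.WittModel.T (Mo m F)) (ns (F := F)) (Nodes.WittModel.X (Mo m F)) :=
  haveI : Fact (Nat.Prime 2) := ⟨Nat.prime_two⟩
  rgdC_model (KInstSp.model m F) (AmbT.of_amb Nodes.WittU.amb_Sp 2) (p0 := SpIdent.adm 1) one_ne_zero cs

omit [Finite F] [CharP F 2] in
theorem eq_one {g : (Fin m ⊕ Fin m → F) ≃ₗ[F] (Fin m ⊕ Fin m → F)} (hb : ∀ x, g ((frame m F).b x) = (frame m F).b x) :
    g = 1 := by
  refine Nodes.WittRGD.Amb.eq_one_of_fix Nodes.WittU.amb_Sp hb ?_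
  intro w hw
  rw [(Submodule.mem_bot F).1 hw, map_zero]

omit [Finite F] [CharP F 2] in
/-- the torus is abelian -/
theorem T_comm : ∀ x ∈ Nodes.WittModel.T (Mo m F), ∀ y ∈ Nodes.WittModel.T (Mo m F), x * y = y * x := by
  rintro _ ⟨⟨g, hg⟩, hg1, rfl⟩ _ ⟨⟨k, hk⟩, hk1, rfl⟩
  rw [← map_mul, ← map_mul]
  congr 1
  apply Subtype.ext
  change g * k = k * g
  rw [← inv_mul_eq_one]
  apply eq_one
  intro x
  obtain ⟨a, ha, ha'⟩ := hg1.2 x
  obtain ⟨b, hb, hb'⟩ := hk1.2 x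
  change g ((frame m F).b x) = a • (frame m F).b x at ha'
  change k ((frame m F).b x) = b • (frame m F).b x at hb'
  change (g * k).symm ((k * g) ((frame m F).b x)) = _
  rw [LinearEquiv.symm_apply_eq]
  change k (g _) = g (k _)
  rw [ha', hb', map_smul, map_smul, ha', hb', smul_smul, smul_smul, mul_comm]

omit [Finite F] [CharP F 2] in
/-- **The reflection inverts.** -/
theorem nn_inv {i : Fin m} (hi : ¬ (i : ℕ) + 1 < m) {g : (Fin m ⊕ Fin m → F) ≃ₗ[F] (Fin m ⊕ Fin m → F)}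
    (hg : g ∈ isos (form m F)) (hm : Mono (frame m F) g id) (hE : g ∈ Ei (F := F) i) :
    nn (frame m F) (SpIdent.adm 1) i * g * (nn (frame m F) (SpIdent.adm 1) i)⁻¹ = g⁻¹ := by
  set w := nn (frame m F) (SpIdent.adm 1) i with hw
  have hwm : Mono (frame m F) w⁻¹ (sg i) := (mono_nn (p0 := SpIdent.adm (1 : F)) one_ne_zero i).inv (sg_sg i)
  rw [eq_inv_iff_mul_eq_one]
  apply eq_one
  intro x
  change w (g (w⁻¹ (g ((frame m F).b x)))) = _
  obtain ⟨a, ha, ha'⟩ := hm x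
  obtain ⟨c, hc, hc'⟩ := hwm x
  change g ((frame m F).b x) = a • (frame m F).b x at ha'
  by_cases hx : x.1 = i
  · obtain ⟨j, s⟩ := x
    obtain rfl : j = i := hx
    rw [sg_last hi] at hc'
    obtain ⟨b, hb, hb'⟩ := hm (j, !s)
    change g ((frame m F).b (j, !s)) = b • (frame m F).b (j, !s) at hb'
    -- `a b = 1`
    have hab : a * b = 1 := by
      have h1 : (form m F).h (g ((frame m F).b (j, s))) (g ((frame m F).b (j, !s))) =
          (form m F).h ((frame m F).b (j, s)) ((frame m F).b (j, !s)) := hg _ _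
      rw [ha', hb', HForm.smul_left, HForm.smul_right] at h1
      have h2 : (form m F).h ((frame m F).b (j, s)) ((frame m F).b (j, !s)) = (frame m F).η (j, !s) :=
        (frame m F).hb_self_neg (j, s)
      have h3 : (frame m F).η (j, !s) ≠ 0 := (frame m F).η_ne _
      rw [h2, ← mul_assoc] at h1
      exact mul_right_cancel₀ h3 (h1.trans (one_mul _).symm)
    have h4 : w (c • (frame m F).b (j, !s)) = (frame m F).b (j, s) := by
      rw [← hc']
      exact w.apply_symm_apply _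
    have h5 : g (c • (frame m F).b (j, !s)) = b • (c • (frame m F).b (j, !s)) := by
      rw [map_smul, hb', smul_comm]
    rw [ha', map_smul, hc', map_smul, map_smul, h5, map_smul, h4, smul_smul, hab, one_smul]
  · have h1 : sg i x = x := by
      unfold sg
      rw [dif_neg hi, if_neg hx]
    rw [h1] at hc'
    have ha1 : g ((frame m F).b x) = (frame m F).b x := hE x hx
    rw [ha1, hc', map_smul, ha1, ← hc']
    exact w.apply_symm_apply _

theorem nodeInv_last (cs : CoxeterSystem (CoxeterMatrix.B m) (CoxeterMatrix.B m).Group) {i : Fin m}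
    (hi : ¬ (i : ℕ) + 1 < m) : H687.FourK.NodeInv (rgd (F := F) cs) i := by
  refine H687.FourK.NodeInv.of_comm _ T_comm fun t ht htM => ?_
  obtain ⟨⟨g, hg⟩, hg1, rfl⟩ := ht
  -- elements of `M_i`
  have hM : H53.HC.MJ cs (Nodes.TypeC.isCartan m) (Nodes.WittModel.X (Mo m F)) {i} ≤
      ((Ei (F := F) i).subgroupOf (Mo m F).I).map (Mo m F).φ := by
    rw [H619.Gow.MJ_single]
    refine sup_le ?_ ?_
    · rintro _ ⟨⟨k, hk⟩, hk1, rfl⟩
      obtain ⟨p, rfl⟩ := mem_rg hi hk1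
      exact ⟨⟨_, hk⟩, Z_mem_Ei i true p, rfl⟩
    · rintro _ ⟨⟨k, hk⟩, hk1, rfl⟩
      obtain ⟨p, rfl⟩ := mem_rg' hi hk1
      exact ⟨⟨_, hk⟩, Z_mem_Ei i false p, rfl⟩
  obtain ⟨⟨k, hk⟩, hk1, hke⟩ := hM htM
  have hker : (⟨g, hg⟩ : (Mo m F).I)⁻¹ * ⟨k, hk⟩ ∈ (Mo m F).φ.ker := by
    rw [MonoidHom.mem_ker, map_mul, map_inv, hke, inv_mul_cancel]
  have hkm : Mono (frame m F) k id := by
    intro x
    obtain ⟨a, ha, ha'⟩ := hg1.2 x
    obtain ⟨b, hb⟩ := (Mo m F).ker ((frame m F).b x) _ hker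
    change g.symm (k ((frame m F).b x)) = b • (frame m F).b x at hb
    rw [LinearEquiv.symm_apply_eq, map_smul] at hb
    change g ((frame m F).b x) = a • (frame m F).b x at ha'
    rw [ha', smul_smul] at hb
    refine ⟨b * a, ?_, hb⟩
    intro h0
    rw [h0, zero_smul] at hb
    have h1 : (frame m F).b x = 0 := (k.map_eq_zero_iff).1 hb
    exact Nodes.WittRGD.b_ne_zero x h1
  have h1 := nn_inv hi (g := k) hk hkm hk1
  have h2 : (Mo m F).φ ⟨g, hg⟩ = (Mo m F).φ ⟨k, hk⟩ := hke.symm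
  rw [h2]
  unfold ns
  rw [← map_inv, ← map_inv, ← map_mul, ← map_mul]
  congr 1
  exact Subtype.ext h1

/-- **The last node.** -/
theorem oc_last (cs : CoxeterSystem (CoxeterMatrix.B m) (CoxeterMatrix.B m).Group) {i : Fin m}
    (hi : ¬ (i : ℕ) + 1 < m) :
    OC cs (Nodes.TypeC.isCartan m) (Nodes.WittModel.X (Mo m F)) {i} := by
  have : Finite (CoxeterMatrix.B m).Group := Nodes.TypeC.finite_W cs
  exact H687.FourK.oc_node_inv (rgd (F := F) cs) (nodeInv_last cs hi)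
    fun u hu => sq_one_last (CharP.cast_eq_zero F 2) hi hu

/-- **`PSp₆(q)`, `q` even.** -/
theorem good5_psp6 {F : Type} [Field F] [Fintype F] [CharP F 2] : Good5 (PSp 3 F) := by
  have : IsSimpleGroup (PSp 3 F) := Cfsg.Agent.S0270.result 3 (by omega) fun h2 => absurd h2 (by omega)
  have hT : H601.OddDeg.TwoC (PSp 3 F) := H742.TwoC.twoC_charTwo (by
    unfold IsLieTypeChar
    exact Or.inr (Or.inl ⟨F, inferInstance, inferInstance, inferInstance, 3, by omega,
      fun h => absurd h (by omega), ⟨MulEquiv.refl _⟩⟩))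
  let cs := (CoxeterMatrix.B 3).toCoxeterSystem
  have hW : Finite (CoxeterMatrix.B 3).Group := Nodes.TypeC.finite_W cs
  have := Fintype.ofFinite (CoxeterMatrix.B 3).Group
  refine H967.K4.good5_of_pair (rgd (F := F) (m := 3) cs)
    (H967.K4.gg_of_g1 (Nodes.WittModel.G1_eq_top _ (by omega) cs)) hT (a := 0) (b := 1) (c := 2) (by decide)
    (by decide) (oc_last cs (by simp)) ?_
  refine H967.K4.rep_ne_of_len _ (Nodes.TypeC.isCartan 3) ?_
  rw [H967.K4.len_eq (i := 0) (j := 1) _ (Nodes.TypeC.isCartan 3) (by decide)]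
  exact H967.K4.len_ne _ (Nodes.TypeC.isCartan 3) (by decide)

end Cfsg.Agent.H612.K4.Sp
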